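import Cfsg.Agent.H6.Fi22R.C.D0

set_option autoImplicit false
set_option maxRecDepth 100000
set_option Elab.async false

namespace Cfsg.H6.Fi22R.C

theorem b0 : allR (blk get gs (gwB gwh 375) gd 194033485428946281261720279520204206197713286548965397915523557424759040) 4 696 = true := by decide +kernel

theorem b1 : allR (blk get gs (gwB gwh 375) gd 194033485428946281261720279520204206197713286548965397915523557424759040) 700 661 = true := by decide +kernel

theorem b2 : allR (blk get gs (gwB gwh 375) gd 194033485428946281261720279520204206197713286548965397915523557424759040) 1361 577 = true := by decide +kernel

theorem b3 : allR (blk get gs (gwB gwh 375) gd 194033485428946281261720279520204206197713286548965397915523557424759040) 1938 479 = true := by decide +kernel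

theorem b4 : allR (blk get gs (gwB gwh 375) gd 194033485428946281261720279520204206197713286548965397915523557424759040) 2417 141 = true := by decide +kernel

theorem c0 : allR (clo get gc 3510 163968 55) 0 605 = true := by decide +kernel

end Cfsg.H6.Fi22R.C
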